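import Cfsg.Agent.H25.UGDefs

/-! Project UG, piece ISO: transitivity on the isotropic points. -/

set_option autoImplicit false

namespace Cfsg.Agent.H67.UgIso

open Cfsg Module Cfsg.Agent.H31 Cfsg.Agent.H77.Sg Cfsg.Agent.H25.UG

universe u

theorem uniq {Z : Type u} [Group Z] [IsCyclic Z] {ν μ : Z →* ℂˣ} (h1 : ν ^ 2 = 1) (h2 : μ ^ 2 = 1)
    (n1 : ν ≠ 1) (n2 : μ ≠ 1) : ν = μ := by
  obtain ⟨z, hz⟩ := IsCyclic.exists_generator (α := Z)
  have key : ∀ ν μ : Z →* ℂˣ, ν z = μ z → ν = μ := fun ν μ h => MonoidHom.ext fun x => by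
    obtain ⟨n, rfl⟩ := Subgroup.mem_zpowers_iff.mp (hz x)
    rw [map_zpow, map_zpow, h]
  have neg : ∀ ν : Z →* ℂˣ, ν ^ 2 = 1 → ν ≠ 1 → ν z = -1 := fun ν h n => by
    have e : ν z ^ 2 = 1 := DFunLike.congr_fun h z
    have e' : ((ν z : ℂˣ) : ℂ) ^ 2 = 1 := by rw [← Units.val_pow_eq_pow_val, e, Units.val_one]
    rcases sq_eq_one_iff.mp e' with h | h
    · exact (n (key _ _ (Units.ext h))).elim
    · exact Units.ext h
  exact key _ _ (by rw [neg ν h1 n1, neg μ h2 n2])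

theorem iso (orb2 : Orb2Stmt.{u}) (inv : InvStmt.{u}) (sl2 : Sl2Stmt.{u}) : IsoStmt.{u} := by
  intro E K _ _ _ _ _ σ B q R t G ψ I h cu fn tr
  have hp : ∃ p ∈ Rt K t, p ≠ 1 := by
    have h1 : 1 < Nat.card (Rt K t) := by rw [cu.cardP]; have := cu.t43; omega
    have := Finite.one_lt_card_iff_nontrivial.mp h1
    obtain ⟨p, hp⟩ := exists_ne (1 : Rt K t)
    exact ⟨p, p.2, fun e => hp (Subtype.ext e)⟩
  obtain ⟨p, hp, p1⟩ := hp
  have key : ∀ ν ∈ I, ν ^ 2 = 1 ∧ ¬ Stab B G := fun ν hν => by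
    obtain ⟨a, b⟩ := sl2 E K σ B q R t ν (h ν) cu.toKt (fn.hz ν hν)
      ⟨p, cu.PT hp, fun hz => p1 (cu.ZP p hz hp), by
        have := fn.hp ν hν p hp 1 (one_mem _)
        rw [mul_one, fn.h1 ν hν] at this
        rw [this]
        exact one_ne_zero⟩
    obtain ⟨c, d⟩ := inv E K σ B q R t G ψ I h cu fn tr ν hν
    exact ⟨a c, fun hs => fn.one (b (d hs) ▸ hν)⟩
  have hI : I.card ≤ 1 := Finset.card_le_one.mpr fun ν hν μ hμ =>
    uniq (key ν hν).1 (key μ hμ).1 (fun e => fn.one (e ▸ hν)) (fun e => fn.one (e ▸ hμ))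
  obtain ⟨o1, o2⟩ := orb2 E K σ B q G cu.st cu.rk cu.le
  rcases o2 (by rw [fn.orb]; omega) with h1 | h1
  · exact h1
  · have : I = ∅ := Finset.eq_empty_of_forall_notMem fun ν hν => (key ν hν).2 h1
    exact o1 (by rw [fn.orb, this, Finset.card_empty])

end Cfsg.Agent.H67.UgIso
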