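import Cfsg.Agent.H24.JnDefs
import Cfsg.Agent.H33.JmFIX
import Cfsg.Agent.H62.JmINV
import Cfsg.Agent.H55.JmFR
import Cfsg.Agent.H86.JmCONG

/-! # Simplicity of a group of order 443520 with small Sylow normalizers -/

set_option autoImplicit false

namespace Cfsg.Agent.H24.JN

open Subgroup Cfsg.Agent.H97.JM

universe u

theorem si_arith {q k : ℕ} (hq : q.Prime) (hk : 1 ≤ k) (h : q ^ k ∣ 443520) : q ^ k % 11 ≠ 1 := by
  have h1 : q ∣ 2 ^ 7 * 3 ^ 2 * 5 * 7 * 11 := (dvd_pow_self q (by omega)).trans h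
  have h2 : q = 2 ∨ q = 3 ∨ q = 5 ∨ q = 7 ∨ q = 11 := by
    simp only [hq.dvd_mul] at h1
    rcases h1 with (((h1 | h1) | h1) | h1) | h1
    · exact .inl ((Nat.prime_dvd_prime_iff_eq hq Nat.prime_two).1 (hq.dvd_of_dvd_pow h1))
    · exact .inr (.inl ((Nat.prime_dvd_prime_iff_eq hq Nat.prime_three).1 (hq.dvd_of_dvd_pow h1)))
    · exact .inr (.inr (.inl ((Nat.prime_dvd_prime_iff_eq hq Nat.prime_five).1 h1)))
    · exact .inr (.inr (.inr (.inl ((Nat.prime_dvd_prime_iff_eq hq (by norm_num)).1 h1))))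
    · exact .inr (.inr (.inr (.inr ((Nat.prime_dvd_prime_iff_eq hq (by norm_num)).1 h1))))
  have h3 : k ≤ 7 := by
    by_contra h4
    have h5 : q ^ 8 ∣ 443520 := (pow_dvd_pow q (by omega)).trans h
    rcases h2 with rfl | rfl | rfl | rfl | rfl <;> norm_num at h5
  rcases h2 with rfl | rfl | rfl | rfl | rfl <;> interval_cases k <;> revert h <;> norm_num

theorem si_mem {K : Type u} [Group K] [Finite K] {N : Subgroup K} [N.Normal] {p : ℕ} (hp : p.Prime)
    {a : K} (ha : orderOf a = p) (h : ¬ p ∣ N.index) : a ∈ N := by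
  rw [← QuotientGroup.eq_one_iff, ← orderOf_eq_one_iff]
  have h1 : orderOf (a : K ⧸ N) ∣ p := ha ▸ orderOf_map_dvd (QuotientGroup.mk' N) a
  have h2 : orderOf (a : K ⧸ N) ∣ N.index := orderOf_dvd_natCard _
  rcases (Nat.dvd_prime hp).1 h1 with h3 | h3
  · exact h3
  · exact absurd (h3 ▸ h2) h

theorem si_idx {K : Type u} [Group K] [Finite K] {N : Subgroup K} [N.Normal] {p : ℕ} (hp : p.Prime)
    {a : K} (ha : orderOf a = p) (h2 : ¬ p ^ 2 ∣ Nat.card K) (haN : a ∈ N) :
    N.index ∣ Nat.card (normalizer ((zpowers a : Subgroup K) : Set K)) := by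
  haveI := Fact.mk hp
  have hc : Nat.card (zpowers a) = p ^ 1 := by rw [Nat.card_zpowers, ha, pow_one]
  have hi : ¬ p ∣ (zpowers a).index := fun h' => h2 (by
    rw [← (zpowers a).card_mul_index, hc, pow_succ]
    exact Nat.mul_dvd_mul_left _ h')
  have := pFR K p ((IsPGroup.of_card hc).toSylow hi) N ⊤ (zpowers_le.2 haN) le_top
    (by rw [normalizer_eq_top])
  rw [card_top, ← N.card_mul_index] at this
  exact Nat.dvd_of_mul_dvd_mul_left Nat.card_pos this

theorem pSI : SI.{u} := by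
  intro K _ _ x s hK hx hs hC hNx hNs
  have p11 : Nat.Prime 11 := by norm_num
  have p7 : Nat.Prime 7 := by norm_num
  have : Nontrivial K := Finite.one_lt_card_iff_nontrivial.1 (by rw [hK]; norm_num)
  refine ⟨fun N hN => ?_⟩
  have hNi := N.card_mul_index
  rw [hK] at hNi
  by_cases h11 : 11 ∣ Nat.card N
  · right
    have i11 : ¬ 11 ∣ N.index := fun h => by
      have : 11 * 11 ∣ 443520 := hNi ▸ Nat.mul_dvd_mul h11 h
      norm_num at this
    have xN : x ∈ N := si_mem p11 hx i11
    have h1 : N.index ∣ 110 := (si_idx p11 hx (by rw [hK]; norm_num) xN).trans hNx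
    have i7 : ¬ 7 ∣ N.index := fun h => by
      have := h.trans h1
      norm_num at this
    have h2 : N.index ∣ 42 :=
      (si_idx p7 hs (by rw [hK]; norm_num) (si_mem p7 hs i7)).trans hNs
    have h3 : N.index ∣ 2 := by
      have := Nat.dvd_gcd h1 h2
      norm_num at this
      exact this
    rcases (Nat.dvd_prime Nat.prime_two).1 h3 with h4 | h4
    · exact index_eq_one.1 h4
    exfalso
    have hc : Nat.card N = 221760 := by rw [h4] at hNi; omega
    obtain ⟨e, he⟩ : 11 ∣ Nat.card (normalizer ((zpowers x : Subgroup K) : Set K)) := by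
      have := card_dvd_of_le (le_normalizer (H := zpowers x))
      rwa [Nat.card_zpowers, hx] at this
    obtain ⟨d, -, hd, -, hm⟩ := pCONG K N 11 e x p11 xN hx (by rw [hc]; norm_num) he
    have h5 : e ∣ 10 := by
      rw [he] at hNx
      exact Nat.dvd_of_mul_dvd_mul_left (by norm_num : 0 < 11) hNx
    have h6 : d ∣ 10 := hd.trans h5
    have h7 : d ≤ 10 := Nat.le_of_dvd (by norm_num) h6
    rw [hc] at hm
    interval_cases d <;> revert h6 hm <;> norm_num
  · left
    by_contra hb
    have hc : Nat.card N ≠ 1 := fun h => hb (card_eq_one.1 h)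
    obtain ⟨q, hq, hqN⟩ := Nat.exists_prime_and_dvd hc
    have hxn : x ∈ normalizer (N : Set K) := by rw [normalizer_eq_top]; exact mem_top x
    obtain ⟨S, hSN, hS, hxS⟩ := pINV pFIX K N 11 q x p11 hq hx hxn h11
    have h1 := pFIX K S 11 x p11 hx hxS
    have h2 : Nat.card ↥(S ⊓ centralizer ({x} : Set K)) = 1 := by
      have a1 : Nat.card ↥(S ⊓ centralizer ({x} : Set K)) ∣ 11 := by
        have := card_dvd_of_le (inf_le_right (a := S) (b := centralizer ({x} : Set K)))
        rwa [hC, Nat.card_zpowers, hx, ← hC] at this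
      rcases (Nat.dvd_prime p11).1 a1 with h | h
      · exact h
      · exact absurd (h ▸ card_dvd_of_le (inf_le_left.trans hSN)) h11
    rw [h2, hS] at h1
    refine si_arith hq (hq.factorization_pos_of_dvd Nat.card_pos.ne' hqN) ?_ h1
    exact (Nat.ordProj_dvd _ _).trans ⟨_, hNi.symm⟩

end Cfsg.Agent.H24.JN
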