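import Cfsg.Agent.H72.PF13b

/-!
Peterfalvi (13.16), (13.17).
-/

set_option autoImplicit false
set_option linter.unusedSectionVars false

namespace Cfsg.Agent.H67

open Cfsg Cfsg.Agent.H63 Cfsg.Agent.H68 Cfsg.Agent.H72

universe u

variable {G : Type u} [Group G] [Finite G] {S T L W₁ U V W₂ : Subgroup G}

theorem TP_norm_W2_le (h : TP S W₁ U W₂) : N[W₂] ≤ S := by
  obtain ⟨x, hx, h1⟩ := exists_ne_one_of_ne_bot h.cyc.W2_ne
  have := h.tiP.norm_le (A := W₂^#) ⟨x, hx, h1⟩ fun _ ha => ⟨h.W2_le_P ha.1, ha.2⟩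
  rwa [top_inf_eq, normalizer_diff_one] at this

theorem TP_W1_cent_W2 (h : TP S W₁ U W₂) : W₁ ≤ C[W₂] := h.cyc.dp.cent'

theorem TP_P_cent_W2 (h : TP S W₁ U W₂) : fittingHallOf S ≤ C[W₂] :=
  le_cent_of_comm h.commP le_rfl h.W2_le_P

theorem TP_coprime_PU (h : TP S W₁ U W₂) : (Nat.card (fittingHallOf S)).Coprime (Nat.card U) :=
  typeP_coprime_core_U h.tp

theorem TP_U_inf_norm_W2 (h : TP S W₁ U W₂) : U ⊓ N[W₂] = ⊥ := by
  by_contra hK
  set K := U ⊓ N[W₂]
  set P := fittingHallOf S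
  have hWc := TP_W1_cent_W2 h
  have hWK : W₁ ≤ N[K] :=
    le_normalizer_inf h.frobUW.norm (le_normalizer_normalizer (le_normalizer_of_le_centralizer hWc))
  have hF : IsFrobenius (K ⊔ W₁) K W₁ := h.frobUW.mono_left inf_le_left hK hWK
  have hKc : K ≤ C[W₂] := by
    rw [← hF.commutator_eq]
    exact (Subgroup.commutator_mono le_rfl hWc).trans
      (commutator_le_of_norm_right (le_normalizer_centralizer inf_le_right))
  have hKP : K ≤ N[P] := (inf_le_left.trans (typeP_U_le h.tp)).trans h.P_norm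
  have hco : (Nat.card K).Coprime (Nat.card P) :=
    (TP_coprime_PU h).symm.coprime_dvd_left (card_dvd_of_le' inf_le_left)
  have hTI := coprime_abel_cent_TI hKP hco h.commP
  have hVP : ⁅P, K⁆ ≤ P := commutator_le_of_norm_left hKP
  have hKV : K ≤ C[⁅P, K⁆] := by
    by_contra hn
    refine H69.Frobenius_cent_compl hF (isMulCommutative_of_le h.commP hVP)
      (sup_le (le_norm_commutator_right _ _)
        (le_normalizer_commutator (h.W1_le.trans h.P_norm) hWK))
      (hco.symm.coprime_dvd_left (card_dvd_of_le' hVP)) hn (le_bot_iff.1 ?_)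
    rw [← hTI]
    refine le_inf inf_le_left ((inf_le_inf_right _ hVP).trans ?_)
    rw [typeP_cent_core_compl h.tp]
    exact cent_symm hKc
  have hV : ⁅P, K⁆ = ⊥ := le_bot_iff.1 (hTI ▸ le_inf le_rfl (cent_symm hKV))
  exact hK (le_bot_iff.1 (h.C_bot ▸ le_inf inf_le_left (cent_symm (le_cent_of_commutator_eq_bot hV))))

/-- (13.16), normalizer form. -/
theorem TP_sdp_norm_W2 (h : TP S W₁ U W₂) : IsSdp (fittingHallOf S) W₁ N[W₂] := by
  have h1 := (typeP_sdp_core_UW1 h.tp).of_le_left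
    (le_normalizer_of_le_centralizer (TP_P_cent_W2 h)) (TP_norm_W2_le h)
  have h2 := (typeP_sdp_UW1 h.tp).inf_of_le_right
    (le_normalizer_of_le_centralizer (TP_W1_cent_W2 h))
  rw [TP_U_inf_norm_W2 h] at h2
  rwa [← h2.eq_of_bot_left] at h1

theorem TP_norm_W2 (h : TP S W₁ U W₂) : N[W₂] = fittingHallOf S ⊔ W₁ := (TP_sdp_norm_W2 h).sup.symm

theorem TP_cent_W2 (h : TP S W₁ U W₂) : C[W₂] = fittingHallOf S ⊔ W₁ :=
  le_antisymm (TP_norm_W2 h ▸ le_normalizer_of_le_centralizer le_rfl)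
    (sup_le (TP_P_cent_W2 h) (TP_W1_cent_W2 h))

/-- (13.16), centralizer form. -/
theorem TP_sdp_cent_W2 (h : TP S W₁ U W₂) : IsSdp (fittingHallOf S) W₁ C[W₂] := by
  rw [TP_cent_W2 h, ← TP_norm_W2 h]; exact TP_sdp_norm_W2 h

/-- (13.16) as in Coq `FTtypeP_norm_cent_compl`. -/
theorem FTtypeP_norm_cent_compl (h : TP S W₁ U W₂) :
    IsSdp (fittingHallOf S) W₁ N[W₂] ∧ IsSdp (fittingHallOf S) W₁ C[W₂] :=
  ⟨TP_sdp_norm_W2 h, TP_sdp_cent_W2 h⟩

theorem TP_pair (h : TP S W₁ U W₂) (h' : TP T W₂ V W₁) : TypePPair S T W₁ W₂ :=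
  of_typeP_pair h.hG h.max h.tp h'.max h'.tp

theorem TP_not_W1_le_Fcore (h : TP S W₁ U W₂) (hU : U ≤ L) : ¬ W₁ ≤ fittingHallOf L := fun hW => by
  have h1 : U ≤ fittingHallOf L := by
    rw [← h.frobUW.commutator_eq]
    exact (Subgroup.commutator_mono le_rfl hW).trans
      (commutator_le_of_norm_right (hU.trans (Fcore_normal L).norm))
  have h2 := le_centralizer_of_isNilpotent_of_coprime (Fcore_nil L) h1 hW h.coprime_UW
  exact h.U_ne (le_bot_iff.1 (h.frobUW.inf_cent ▸ le_inf le_rfl h2))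

theorem TP_U_isHall (h : TP S W₁ U W₂) : IsHallOf U S :=
  (h.frobUW.isHallOf_left).trans ((typeP_sdp_core_UW1 h.tp).isHallOf_right_iff.2
    (Fcore_coprime (typeP_sdp_core_UW1 h.tp)))

/-- A maximal subgroup containing `N(U)` is of type 1 when `S` is of type 2. -/
theorem TP_type1_of_norm_le (h : TP S W₁ U W₂) (h2 : FTtype S = 2) (hL : IsCoatom L)
    (hN : N[U] ≤ L) : FTtype L = 1 := by
  by_contra h1
  obtain ⟨T, V, h'⟩ := h.exists_pair
  have hUL : U ≤ L := Subgroup.le_normalizer.trans hN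
  rcases (TP_pair h h').conj L hL h1 with ⟨g, rfl⟩ | ⟨g, rfl⟩
  · have h3 := hall_cj (TP_U_isHall h).hall g
    obtain ⟨x, hx, e⟩ := hall_conj (of_typeP_sol (conj_of_typeP h.tp g)) h3
      (hall_of_card_eq h3 hUL (card_cj g U).symm)
    refine (compl_of_typeII h.hG h.max h.tp h2).not_norm_le ?_
    rw [← cj_le_cj_iff (g := x * g), cj_normalizer, cj_mul, ← e, cj_mul, cj_eq_self_of_mem hx]
    exact hN
  · refine TP_not_W1_le_Fcore h hUL (le_of_normal_hall (Fcore_Hall _).hall (Fcore_normal _)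
      (h.frobUW.norm.trans hN) ?_)
    rw [Fcore_cj, card_cj]
    exact isPi_of_le (isPi_primesOf _) h'.W2_le_P

/-- (13.17) as in Coq `FTtypeII_support_facts`. -/
theorem FTtypeII_support_facts (h : TP S W₁ U W₂) (h' : TP T W₂ V W₁) (h2 : FTtype S = 2)
    (hL : IsCoatom L) (hN : N[U] ≤ L) :
    IsFrobeniusKer L (fittingHallOf L) ∧ U ≤ fittingHallOf L ∧
      (IsSdp (fittingHallOf L) W₁ L ∨
        ∃ y ∈ fittingHallOf T, IsSdp (fittingHallOf L) (W₁ ⊔ cj y W₂) L) := by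
  have hK := H14.FTtype1_Frobenius h.hG hL (TP_type1_of_norm_le h h2 hL hN)
  have hUL : U ≤ L := Subgroup.le_normalizer.trans hN
  have hWL : W₁ ≤ L := h.frobUW.norm.trans hN
  have hW := TP_not_W1_le_Fcore h hUL
  set H := fittingHallOf L
  obtain ⟨x, hx, hx1, hxW⟩ := exists_zpowers_eq_of_prime_card h.primeq
  have hxH : x ∉ H := fun hm => hW (hxW ▸ (Subgroup.zpowers_le).2 hm)
  obtain ⟨E, hF, hWE⟩ : ∃ E, IsFrobenius L H E ∧ W₁ ≤ E := by
    obtain ⟨E, hE⟩ := hK
    obtain ⟨k, hk, hxk⟩ := hE.exists_mem_cj (hWL hx) hxH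
    exact ⟨_, hE.cj_right (hE.le_left hk), hxW ▸ (Subgroup.zpowers_le).2 hxk⟩
  have hEo := mFT_odd h.hG E
  have hEN : E ≤ N[W₁] := (H69.prime_odd_regular_normal h.primeq hEo hWE hF.ker_ne hF.norm hF.reg).norm
  refine ⟨hK, ?_, ?_⟩
  · -- `U ≤ H`
    by_cases hUH : U ⊓ H = ⊥
    · exfalso
      have h3 : ⁅L, W₁⁆ ≤ H ⊔ W₁ := by
        rw [← hF.sdp.sup]
        have hn : L ≤ N[H ⊔ W₁] := by
          rw [← hF.sdp.sup]
          exact sup_le (le_normalizer_of_le le_sup_left) (le_normalizer_sup hF.norm hEN)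
        exact commutator_sup_left_le (hF.le_left.trans hn) (hF.le_right.trans hn)
          ((commutator_le_of_norm_left (hWE.trans hF.norm)).trans le_sup_left)
          ((commutator_le_of_norm_right hEN).trans le_sup_right)
      have h4 : U ≤ H ⊔ W₁ := by
        rw [← h.frobUW.commutator_eq]
        exact (Subgroup.commutator_mono hUL le_rfl).trans h3
      have h5 := relIndex_inf_dvd_of_le_normalizer (H := H) h4 le_sup_left
        (Or.inr (hUL.trans hF.normal.norm))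
      rw [(hF.sdp.mono_right hWE).relIndex_left] at h5
      have h6 := card_inf_mul_relIndex H U
      rw [inf_comm, hUH, Subgroup.card_bot, one_mul] at h6
      rw [h6] at h5
      exact h.U_ne (Subgroup.card_eq_one.1 (Nat.Coprime.eq_one_of_dvd h.coprime_UW h5))
    · obtain ⟨y, hy, hy1⟩ := exists_ne_one_of_ne_bot hUH
      exact (le_inf hUL ((le_cent_of_comm h.commU le_rfl le_rfl).trans
        (centralizer_le_centralizer_singleton hy.1))).trans (hF.cent1_ker hy.2 hy1)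
  · have hsd := TP_sdp_norm_W2 h'
    set Q := fittingHallOf T
    have : Fact (Nat.card W₁).Prime := ⟨h.primeq⟩
    have hQE : Q ⊓ E = W₁ := by
      have hc : IsCyclic ↥(Q ⊓ E) := H69.odd_regular_pgroup_cyclic
        ((IsPGroup.of_card h'.cardP).to_le inf_le_left) (mFT_odd h.hG _) hF.ker_ne
        (inf_le_right.trans hF.norm) (hF.reg.mono_right inf_le_right)
      obtain ⟨z, hz, e⟩ := exists_zpowers_eq_of_isCyclic hc
      refine (Subgroup.eq_of_le_of_card_ge (le_inf h'.W2_le_P hWE) ?_).symm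
      rw [← e, Nat.card_zpowers]
      exact Nat.le_of_dvd h.primeq.pos (orderOf_dvd_of_pow_eq_one (h'.abelP.2 z hz.1))
    by_cases hEQ : E ≤ Q
    · left
      rw [← hQE, inf_eq_right.2 hEQ]
      exact hF.sdp
    · right
      have h3 := relIndex_inf_dvd_of_le_normalizer (H := Q) hEN hsd.le_left
        (Or.inr (hEN.trans hsd.le_norm))
      rw [hsd.relIndex_left] at h3
      have h4 := ((Nat.dvd_prime h.primep).1 h3).resolve_left
        fun e => hEQ (Subgroup.relIndex_eq_one.1 e)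
      obtain ⟨R, hR, hRc⟩ := exists_prime_card_le (X := E) h.primep
        (h4 ▸ Subgroup.relIndex_dvd_card _ _)
      have hco := typeP_coprime_core_W1 h'.tp
      have h5 : IsSdp Q R N[W₁] := isSdp_of_card hsd.normal (hR.trans hEN)
        (inf_eq_bot_of_coprime' (hRc ▸ hco)) (by rw [hsd.card, hRc])
      obtain ⟨y, hy, e⟩ := sdp_conj_of_coprime hsd h5 hco (Or.inr (Fcore_sol T))
      refine ⟨y, hy, ?_⟩
      have h6 := h5.of_le_right hR hEN
      rw [hQE] at h6
      rw [← e, h6.sup]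
      exact hF.sdp

end Cfsg.Agent.H67
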