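import Cfsg.Agent.H67.Fit
import Cfsg.Agent.H63.BG1
import Cfsg.Agent.H63.Constt
import Cfsg.Agent.H24.PSolv

/-!
The lower `p`-series of a finite group.  In a `p`-soluble group its length is attained by a subgroup
generated by two elements (in the spirit of Carter, Fischer and Hawkes).  Powell's lemma for an
arbitrary set of primes.
-/

set_option autoImplicit false

namespace Cfsg.Agent.H67

open Subgroup Cfsg Cfsg.Agent.H63

universe u

section
variable {G : Type*} [Group G] {τ : Set ℕ} {X Y K : Subgroup G} {p : ℕ}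

/-- The subgroup generated by the `τ`-elements of `X`, that is `O^{τ'}(X)`. -/
def piGen (τ : Set ℕ) (X : Subgroup G) : Subgroup G := closure {x | x ∈ X ∧ PiElt τ x}

theorem piGen_le (τ : Set ℕ) (X : Subgroup G) : piGen τ X ≤ X := (closure_le _).2 fun _ h => h.1

theorem mem_piGen {x : G} (hx : x ∈ X) (h : PiElt τ x) : x ∈ piGen τ X := subset_closure ⟨hx, h⟩

theorem piGen_le_iff : piGen τ X ≤ Y ↔ ∀ x ∈ X, PiElt τ x → x ∈ Y :=
  (closure_le _).trans ⟨fun h x hx h' => h ⟨hx, h'⟩, fun h x hx => h x hx.1 hx.2⟩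

theorem piGen_mono (h : X ≤ Y) : piGen τ X ≤ piGen τ Y :=
  piGen_le_iff.2 fun _ hx h' => mem_piGen (h hx) h'

theorem le_piGen (h : K ≤ X) (hK : IsPiSubgroup τ K) : K ≤ piGen τ X := fun _ hx =>
  mem_piGen (h hx) (piElt_of_mem hK hx)

theorem piGen_piGen (τ : Set ℕ) (X : Subgroup G) : piGen τ (piGen τ X) = piGen τ X :=
  le_antisymm (piGen_le _ _) (piGen_le_iff.2 fun _ hx h => mem_piGen (mem_piGen hx h) h)

theorem piGen_eq_bot (h : IsPiSubgroup τᶜ X) : piGen τ X = ⊥ :=
  eq_bot_iff.2 (piGen_le_iff.2 fun _ hx h' => h'.eq_one (piElt_of_mem h hx))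

variable [Finite G]

theorem map_piGen {G' : Type*} [Group G'] [Finite G'] (f : G →* G') (τ : Set ℕ) (X : Subgroup G) :
    (piGen τ X).map f = piGen τ (X.map f) := by
  refine le_antisymm (map_le_iff_le_comap.2 (piGen_le_iff.2 fun x hx h =>
    mem_piGen (mem_map_of_mem f hx) (h.map f))) (piGen_le_iff.2 ?_)
  rintro _ ⟨x, hx, rfl⟩ h
  exact ⟨constt τ x, mem_piGen (constt_mem τ hx) (piElt_constt τ x), by
    rw [map_constt, constt_p_elt h]⟩

theorem norm_le_norm_piGen (τ : Set ℕ) (X : Subgroup G) : N[X] ≤ N[piGen τ X] := fun g hg => by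
  rw [← cj_eq_self_iff, cj_def, map_piGen, ← cj_def, cj_eq_self hg]

theorem piGen_normalIn (τ : Set ℕ) (X : Subgroup G) : piGen τ X ⊴ X :=
  ⟨piGen_le _ _, le_normalizer.trans (norm_le_norm_piGen _ _)⟩

theorem piNat_relIndex_piGen (τ : Set ℕ) (X : Subgroup G) : PiNat τᶜ ((piGen τ X).relIndex X) := by
  refine piNat_compl_iff.2 fun r hr hτ hd => ?_
  have : Fact r.Prime := ⟨hr⟩
  obtain ⟨P, hP⟩ := exists_syl r X
  exact syl_not_dvd hP (hd.trans (relIndex_dvd_of_le_left _
    (le_piGen (hall_le hP) (isPi_of_isPGroup_of_mem hr (syl_isPGroup hP) hτ))))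

theorem piGen_eq_bot_iff : piGen τ X = ⊥ ↔ IsPiSubgroup τᶜ X := by
  refine ⟨fun h => ?_, piGen_eq_bot⟩
  have := piNat_relIndex_piGen τ X
  rwa [h, relIndex_bot_left] at this

/-- Powell's lemma. -/
theorem mem_piCore_of_forall_mul {π : Set ℕ} {d : G} (h : ∀ g : G, PiElt π g → PiElt π (d * g)) :
    d ∈ O[π]((⊤ : Subgroup G)) := by
  let M : Submonoid G :=
    { carrier := {e | ∀ g : G, PiElt π g → PiElt π (e * g)}
      mul_mem' := fun ha hb g hg => by rw [mul_assoc]; exact ha _ (hb g hg)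
      one_mem' := fun g hg => by rwa [one_mul] }
  let D : Subgroup G :=
    { M with
      inv_mem' := fun {x} hx => by
        have : x⁻¹ ∈ Submonoid.powers x := by
          rw [mem_powers_iff_mem_zpowers]
          exact inv_mem (mem_zpowers x)
        exact Submonoid.powers_le.2 hx this }
  refine le_piCoreOf (N := D) (normalIn_top_iff.2 ⟨fun e he c g hg => ?_⟩)
    (isPi_iff_forall_piElt.2 fun e he => by simpa using he 1 (piElt_one π)) h
  have := (he _ (hg.conj c⁻¹)).conj c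
  convert this using 1
  group

end

/-- The sets of primes `{p}`, `{p}ᶜ`, `{p}`, ... (up to double complements). -/
def sg (p : ℕ) : ℕ → Set ℕ
  | 0 => {p}
  | n + 1 => (sg p n)ᶜ

theorem sg_eq (p n : ℕ) : sg p n = {p} ∨ sg p n = {p}ᶜ := by
  induction n with
  | zero => exact Or.inl rfl
  | succ n ih => rcases ih with h | h <;> simp [sg, h]

section
variable {G : Type*} [Group G] {X Y K : Subgroup G} {p : ℕ}

/-- The lower `p`-series `X ≥ O^{p'}(X) ≥ O^{p',p}(X) ≥ ...`. -/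
def low (p : ℕ) : ℕ → Subgroup G → Subgroup G
  | 0, X => X
  | n + 1, X => piGen (sg p n) (low p n X)

theorem low_succ (n : ℕ) (X : Subgroup G) : low p (n + 1) X = piGen (sg p n) (low p n X) := rfl

theorem low_le (n : ℕ) (X : Subgroup G) : low p n X ≤ X := by
  induction n with
  | zero => exact le_rfl
  | succ n ih => exact (piGen_le _ _).trans ih

theorem low_anti {m n : ℕ} (h : m ≤ n) (X : Subgroup G) : low p n X ≤ low p m X := by
  induction h with
  | refl => exact le_rfl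
  | step _ ih => exact (piGen_le _ _).trans ih

theorem low_mono (n : ℕ) (h : X ≤ Y) : low p n X ≤ low p n Y := by
  induction n with
  | zero => exact h
  | succ n ih => exact piGen_mono ih

variable [Finite G]

theorem map_low {G' : Type*} [Group G'] [Finite G'] (f : G →* G') (n : ℕ) (X : Subgroup G) :
    (low p n X).map f = low p n (X.map f) := by
  induction n with
  | zero => rfl
  | succ n ih => rw [low_succ, map_piGen, ih, low_succ]

theorem norm_le_norm_low (n : ℕ) (X : Subgroup G) : N[X] ≤ N[low p n X] := by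
  induction n with
  | zero => exact le_rfl
  | succ n ih => exact ih.trans (norm_le_norm_piGen _ _)

theorem low_normalIn (n : ℕ) (X : Subgroup G) : low p n X ⊴ X :=
  ⟨low_le _ _, le_normalizer.trans (norm_le_norm_low _ _)⟩

theorem low_eq_map (n : ℕ) (X : Subgroup G) :
    low p n X = (low p n (⊤ : Subgroup X)).map X.subtype := by
  rw [map_low, ← MonoidHom.range_eq_map, range_subtype]

theorem low_le_sup [Y.Normal] (h : Y ⊔ K = ⊤) (n : ℕ) : low p n ⊤ ≤ low p n K ⊔ Y := by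
  have h1 : K.map (QuotientGroup.mk' Y) = (⊤ : Subgroup G).map (QuotientGroup.mk' Y) := by
    rw [← h, Subgroup.map_sup, (map_eq_bot_iff Y).2 (QuotientGroup.ker_mk' Y).ge, bot_sup_eq]
  have h2 := (map_le_map_iff (f := QuotientGroup.mk' Y) (H := low p n ⊤) (K := low p n K)).1
    (by rw [map_low, map_low, h1])
  rwa [QuotientGroup.ker_mk'] at h2

theorem isPi_or_of_card (hp : p.Prime) (n : ℕ)
    (h : (∃ m, Nat.card X = p ^ m) ∨ (Nat.card X).Coprime p) :
    IsPiSubgroup (sg p n) X ∨ IsPiSubgroup (sg p n)ᶜ X := by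
  have h1 : IsPiSubgroup {p} X ∨ IsPiSubgroup {p}ᶜ X :=
    h.imp (fun ⟨m, hm⟩ => isPi_of_isPGroup hp (isPGroup_of_card_eq_pow hm))
      (isPi_compl_singleton_iff_coprime hp).2
  rcases sg_eq p n with e | e <;> rw [e]
  · exact h1
  · rw [compl_compl]; exact h1.symm

theorem isSolvable_or (hp : p.Prime) (n : ℕ) (hX : IsPiSubgroup (sg p n) X)
    (hY : IsPiSubgroup (sg p n)ᶜ Y) : Group.IsSolvable X ∨ Group.IsSolvable Y := by
  rcases sg_eq p n with e | e <;> rw [e] at hX hY
  · exact Or.inl (isSolvable_of_isPGroup hp (isPGroup_of_isPi hp hX))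
  · rw [compl_compl] at hY
    exact Or.inr (isSolvable_of_isPGroup hp (isPGroup_of_isPi hp hY))

end

theorem card_quotient_lt' {G : Type*} [Group G] [Finite G] {N : Subgroup G} (h : N ≠ ⊥) :
    Nat.card (G ⧸ N) < Nat.card G := by
  rw [N.card_eq_card_quotient_mul_card_subgroup]
  exact lt_mul_of_one_lt_right Nat.card_pos (N.one_lt_card_iff_ne_bot.2 h)

theorem exists_low_eq_bot {p : ℕ} (hp : p.Prime) (G : Type u) [Group G] [Finite G]
    (h : IsPSolvable p G) : ∃ n, low p n (⊤ : Subgroup G) = ⊥ := by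
  induction hn : Nat.card G using Nat.strong_induction_on generalizing G with
  | _ n IH =>
  subst hn
  rcases subsingleton_or_nontrivial G with hs | hs
  · exact ⟨0, Subsingleton.elim _ _⟩
  obtain ⟨N, hN, hne, hc⟩ := H24.exists_normal_ne_bot_of_isPSolvable h
  obtain ⟨k, hk⟩ := IH _ (card_quotient_lt' hne) (G ⧸ N) (H24.isPSolvable_quotient hp h N) rfl
  rw [← map_top_of_surjective _ (QuotientGroup.mk'_surjective N), ← map_low, Subgroup.map_eq_bot_iff,
    QuotientGroup.ker_mk'] at hk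
  rcases isPi_or_of_card hp k hc with h1 | h1
  · refine ⟨k + 2, piGen_eq_bot ?_⟩
    rw [sg, compl_compl]
    exact isPi_of_le h1 ((piGen_le _ _).trans hk)
  · exact ⟨k + 1, piGen_eq_bot (isPi_of_le h1 hk)⟩

/-- The length of the lower `p`-series of a `p`-soluble group is attained by a subgroup generated
by two elements. -/
theorem exists_pair_low_ne_bot {p : ℕ} (hp : p.Prime) (G : Type u) [Group G] [Finite G]
    (h : IsPSolvable p G) (n : ℕ) (hY1 : low p n (⊤ : Subgroup G) ≠ ⊥) :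
    ∃ a b : G, low p n (closure {a, b}) ≠ ⊥ := by
  induction hn : Nat.card G using Nat.strong_induction_on generalizing G n with
  | _ c IH =>
  subst hn
  have IH' : ∀ H : Subgroup G, H ≠ ⊤ → ∀ m, low p m H ≠ ⊥ →
      ∃ a ∈ H, ∃ b ∈ H, low p m (closure {a, b}) ≠ ⊥ := by
    intro H hH m hm
    obtain ⟨a, b, hab⟩ := IH _ (lt_of_le_of_ne (Nat.le_of_dvd Nat.card_pos H.card_subgroup_dvd_card)
      fun e => hH (H.eq_top_of_card_eq e)) H (H24.isPSolvable_subgroup hp h H) m
      (fun e => hm (by rw [low_eq_map, e, Subgroup.map_bot])) rfl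
    refine ⟨a, a.2, b, b.2, fun e => hab ?_⟩
    rw [← map_eq_bot_iff_of_injective _ H.subtype_injective, map_low, MonoidHom.map_closure,
      Set.image_pair]
    exact e
  by_contra hc
  push Not at hc
  have H1 : ∀ H : Subgroup G, H ≠ ⊤ → low p n H = ⊥ := fun H hH => by
    by_contra hne
    obtain ⟨a, -, b, -, hab⟩ := IH' H hH n hne
    exact hab (hc a b)
  have H2 : ∀ N : Subgroup G, N ⊴ ⊤ → N ≠ ⊥ → low p n ⊤ ≤ N := fun N hN hne => by
    have := normalIn_top_iff.1 hN
    by_contra hle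
    obtain ⟨a, b, hab⟩ := IH _ (card_quotient_lt' hne) (G ⧸ N) (H24.isPSolvable_quotient hp h N) n
      (by rwa [← map_top_of_surjective _ (QuotientGroup.mk'_surjective N), ← map_low, Ne,
        Subgroup.map_eq_bot_iff, QuotientGroup.ker_mk']) rfl
    obtain ⟨a, rfl⟩ := QuotientGroup.mk'_surjective N a
    obtain ⟨b, rfl⟩ := QuotientGroup.mk'_surjective N b
    apply hab
    rw [← Set.image_pair, ← MonoidHom.map_closure, ← map_low, hc, Subgroup.map_bot]
  match n with
  | 0 =>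
    obtain ⟨a, -, ha⟩ := exists_ne_one_of_ne_bot hY1
    exact ne_bot_of_mem (subset_closure (by simp)) ha (hc a a)
  | 1 =>
    refine hY1 (eq_bot_iff.2 (piGen_le_iff.2 fun a _ ha => ?_))
    rw [← hc a a]
    exact mem_piGen (subset_closure (by simp)) ha
  | m + 2 =>
  set σ := sg p m with hσ
  set X := low p (m + 1) (⊤ : Subgroup G) with hX
  set Y := low p (m + 2) (⊤ : Subgroup G) with hY
  have hXn : X ⊴ ⊤ := low_normalIn _ _
  have hYn : Y ⊴ ⊤ := low_normalIn _ _
  have hYN := normalIn_top_iff.1 hYn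
  have hYX : Y ≤ X := piGen_le _ _
  have hidx : PiNat σᶜᶜ (Y.relIndex X) := piNat_relIndex_piGen _ _
  have hYπ : IsPiSubgroup σᶜ Y := by
    have : Nontrivial G := by
      obtain ⟨a, -, ha⟩ := exists_ne_one_of_ne_bot hY1
      exact ⟨⟨a, 1, ha⟩⟩
    obtain ⟨N, hN, hne, hc'⟩ := H24.exists_normal_ne_bot_of_isPSolvable h
    have hle := H2 N (normalIn_top_iff.2 hN) hne
    refine isPi_of_le ((isPi_or_of_card hp m hc').resolve_left fun h1 => hY1 ?_) hle
    refine piGen_eq_bot (isPi_of_relIndex (N := Y) ?_ hidx)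
    rw [sg, compl_compl]
    exact isPi_of_le h1 (inf_le_left.trans hle)
  have hYh : IsPiHallOf σᶜ Y X := hall_mk hYX hYπ hidx
  obtain ⟨D, hD⟩ := exists_hall_compl_of_normal_hall hYh (hYn.of_le hYX le_top)
  have hsup := hall_sup_hall_compl hYh hD
  have hcard := card_hall_mul_card_compl hYh hD
  rw [compl_compl] at hD
  have hDY : D ≤ N[Y] := le_top.trans hYn.norm
  have hcop := isPi_coprime (hall_isPi hD) hYπ
  have hsol := isSolvable_or hp m (hall_isPi hD) hYπ
  have hD1 : D ≠ ⊥ := by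
    rintro rfl
    apply hY1
    rw [eq_bot_iff, ← piGen_eq_bot (τ := σ) (isPi_compl_of_hall_bot hD)]
    exact hYX.trans (piGen_piGen _ _).ge
  have hH : N[D] ≠ ⊤ := fun e => hY1 (isPi_eq_bot (isPi_of_le (hall_isPi hD)
    (H2 D ⟨le_top, e.ge⟩ hD1)) hYπ)
  have hmul : IsMul Y N[D] ⊤ := by
    refine ⟨le_top, le_top, fun g _ => ?_⟩
    obtain ⟨y, hy, e⟩ := exists_cj_eq_of_le_sup hDY hcop hsol (B := cj g D)
      (hsup ▸ cj_le_of_mem_normalizer (hXn.norm (mem_top g)) (hall_le hD)) (card_cj _ _)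
    exact ⟨y, hy, y⁻¹ * g, cj_eq_cj_iff.1 e, by group⟩
  have hYH : ¬ Y ≤ N[D] := fun hle => hH (eq_top_iff.2 (hmul.le_of_le hle le_rfl))
  have key : ∀ K : Subgroup G, Y ⊔ K = ⊤ → D ≤ K → D ≤ low p (m + 1) K := by
    intro K hK hDK
    have h1 : D ≤ N[low p (m + 1) K] := hDK.trans (low_normalIn _ _).norm
    have h2 : low p (m + 1) K ≤ X := low_mono _ le_top
    have h3 : Y ⊔ low p (m + 1) K = X :=
      le_antisymm (sup_le hYX h2) ((low_le_sup hK _).trans (sup_comm _ _).le)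
    refine le_of_isPi_of_relIndex h1 (hall_isPi hD) ?_
    rw [← relIndex_sup_of_le_normalizer h1]
    refine (isPi_relIndex hYπ (low p (m + 1) K)).of_dvd ?_
    rw [← relIndex_sup_of_le_normalizer' (Or.inl (le_top.trans hYn.norm)), h3]
    exact Dvd.intro _ (relIndex_mul_relIndex _ _ _ le_sup_right (sup_le (hall_le hD) h2))
  have key2 : ∀ K A B : Subgroup G, K ≠ ⊤ → A ≤ K → A ≤ Y → B ≤ low p (m + 1) K → B ≤ N[A] →
      B ≤ C[A] := by
    intro K A B hK hAK hAY hB hn
    rw [le_centralizer_iff]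
    apply le_cent_of_commutator_eq_bot
    rw [eq_bot_iff, ← H1 K hK]
    exact le_piGen ((commutator_mono le_rfl hB).trans
      (commutator_le_of_norm_right (hAK.trans (low_normalIn _ _).norm)))
      (isPi_of_le hYπ ((commutator_le_of_norm_left hn).trans hAY))
  obtain ⟨q, hq, Q, hQ, hDQ, hQc⟩ : ∃ q : ℕ, q.Prime ∧ ∃ Q, IsSyl q Q Y ∧ D ≤ N[Q] ∧ ¬ D ≤ C[Q] := by
    by_contra hc'
    push Not at hc'
    refine hYH ((le_of_forall_syl_le fun q hq _ => ?_).trans (centralizer_le_normalizer _))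
    have : Fact q.Prime := ⟨hq⟩
    obtain ⟨Q, hQ, hDQ⟩ := coprime_syl_exists q hDY hcop hsol
    exact ⟨Q, hQ, le_centralizer_iff.1 (hc' q hq Q hQ hDQ)⟩
  have : Fact q.Prime := ⟨hq⟩
  have hQn : Q ⊴ ⊤ := by
    by_contra hn
    have h1 : N[Q] ≠ ⊤ := fun e => hn ⟨le_top, e.ge⟩
    exact hQc (key2 N[Q] Q D h1 le_normalizer (hall_le hQ)
      (key _ (by simpa using frattini_arg hYn hQ) hDQ) hDQ)
  have hYq : IsPGroup q Y := (syl_isPGroup hQ).to_le (H2 Q hQn (by
    rintro rfl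
    exact hQc (centralizer_bot.ge.trans' le_top)))
  have hYc : Y ≤ C[Y] :=
    (H2 Z[Y] hYn.center (center_ne_bot_of_isPGroup hq hYq hY1)).trans inf_le_right
  have hcompl : ∀ K : Subgroup G, Y ⊔ K = ⊤ → K ≠ ⊤ → Y ⊓ K = ⊥ := by
    intro K hK hK'
    by_contra hne
    have h1 := H2 (Y ⊓ K) ⟨le_top, hK ▸ sup_le
      (le_normalizer_of_le_centralizer (hYc.trans (centralizer_anti inf_le_left)))
      (le_normalizer_inf (le_top.trans hYn.norm) le_normalizer)⟩ hne
    exact hK' (by rw [← hK, right_eq_sup]; exact h1.trans inf_le_right)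
  have hYH' := hcompl _ hmul.sup hH
  obtain ⟨a, ha, b, hb, hab⟩ := IH' _ hH (m + 1) (ne_bot_mono hD1 (key _ hmul.sup le_normalizer))
  have hA : closure {a, b} ≤ N[D] := (closure_le _).2 (by rintro _ (rfl | rfl) <;> assumption)
  have hM : Y ⊔ closure {a, b} = ⊤ := by
    by_contra hne
    have h1 := key2 _ Y _ hne le_sup_left le_rfl (low_mono (m + 1) le_sup_right)
      (le_top.trans hYn.norm)
    refine hYH ((H2 (N[D] ⊓ C[Y]) ⟨le_top, hmul.sup ▸ sup_le
      (le_normalizer_of_le_centralizer' inf_le_right)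
      (le_normalizer_inf le_normalizer (le_normalizer_centralizer (le_top.trans hYn.norm)))⟩
      (ne_bot_mono hab (le_inf ((low_le _ _).trans hA) h1))).trans inf_le_left)
  have hcm : ∀ (y : Y) (g : G), y * g * (y : G)⁻¹ * g⁻¹ ∈ Y := fun y g => by
    simpa only [mul_assoc] using Y.mul_mem y.2 (hYN.conj_mem _ (Y.inv_mem y.2) g)
  obtain ⟨⟨y₁, y₂⟩, hy⟩ : ∃ z : Y × Y, ∀ y : Y, (⟨_, hcm y a⟩, ⟨_, hcm y b⟩) ≠ z := by
    by_contra hs
    push Not at hs
    have h1 := Nat.card_le_card_of_surjective _ hs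
    have h2 := (one_lt_card_iff_ne_bot Y).2 hY1
    rw [Nat.card_prod] at h1
    nlinarith
  set K := closure ({y₁ * a, y₂ * b} : Set G) with hKdef
  have haK : y₁ * a ∈ K := subset_closure (by simp)
  have hbK : y₂ * b ∈ K := subset_closure (by simp)
  have hK : Y ⊔ K = ⊤ := by
    rw [eq_top_iff, ← hM]
    refine sup_le le_sup_left ((closure_le _).2 ?_)
    rintro _ (rfl | rfl)
    · simpa using mul_mem_sup (inv_mem y₁.2) haK
    · simpa using mul_mem_sup (inv_mem y₂.2) hbK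
  have hK' : K ≠ ⊤ := fun e => hY1 (by rw [hY, ← e]; exact hc _ _)
  have h1 := ((isMul_of_normal_left hYn hK).of_le_left hYX le_top).card_of_inf
    (by rw [← inf_assoc, hcompl K hK hK', bot_inf_eq])
  obtain ⟨y, hyY, e⟩ := exists_cj_eq_of_le_sup hDY hcop hsol (B := K ⊓ X) (hsup ▸ inf_le_right)
    (Nat.eq_of_mul_eq_mul_left (Nat.card_pos (α := Y)) (h1.symm.trans hcard.symm))
  have h2 : K ≤ cj y N[D] := by
    rw [cj_normalizer, ← e]
    exact le_normalizer_inf le_normalizer (le_top.trans hXn.norm)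
  have h3 : ∀ (u : Y) (g : G), g ∈ N[D] → u * g ∈ K → y * g * y⁻¹ * g⁻¹ = u := by
    intro u g hg hu
    have h4 : y⁻¹ * (u * g) * y * g⁻¹ ∈ Y ⊓ N[D] := mem_inf.2 ⟨by
      simpa only [mul_assoc] using Y.mul_mem (Y.mul_mem (Y.inv_mem hyY) u.2) (hYN.conj_mem _ hyY g),
      mul_mem (mem_cj.1 (h2 hu)) (inv_mem hg)⟩
    rw [hYH', mem_bot] at h4
    calc y * g * y⁻¹ * g⁻¹ = y * (y⁻¹ * (u * g) * y * g⁻¹) * g * y⁻¹ * g⁻¹ := by rw [h4, mul_one]
      _ = u := by group
  exact hy ⟨y, hyY⟩ (Prod.ext (Subtype.ext (h3 y₁ a ha haK)) (Subtype.ext (h3 y₂ b hb hbK)))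

end Cfsg.Agent.H67
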