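import Cfsg.Agent.H18.RfSc
import Cfsg.Agent.H42.Mathieu

/-! Project RF (S3318), piece F3: the dodecad involutions of the code module. -/

set_option autoImplicit false

namespace Cfsg.Agent.H67.RfF3

open Cfsg Subgroup Cfsg.Agent.H18.Rf
open Cfsg.Agent.H48 (IsWord)
open scoped symmDiff Pointwise

universe u

theorem card_T {T : Subgroup M24} (hT : IsPGroup 2 T) {c : Finset GolayPt} (hc : c ∈ dodecads)
    (h : ∀ t ∈ T, t • c = c ∨ t • c = cᶜ) : Nat.card T ≤ 2 ^ 7 := by
  have := Fact.mk Nat.prime_two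
  have h1 : (MulAction.stabilizer T c).index ≤ 2 := by
    rw [MulAction.index_stabilizer]
    refine (Set.ncard_le_ncard (t := {c, cᶜ}) ?_ (Set.toFinite _)).trans ((Set.ncard_insert_le _ _).trans (by rw [Set.ncard_singleton]))
    rintro _ ⟨t, rfl⟩
    exact h t t.2
  have h2 : Nat.card (MulAction.stabilizer T c) ∣ 95040 := by
    rw [← H42.card_stab_dodecad hc]
    exact card_comap_dvd_of_injective (MulAction.stabilizer M24 c) T.subtype T.subtype_injective
  obtain ⟨k, hk⟩ := (hT.to_subgroup (MulAction.stabilizer T c)).exists_card_eq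
  have h3 : k ≤ 6 := by
    by_contra h3
    have := (pow_dvd_pow 2 (show 7 ≤ k by omega)).trans (hk ▸ h2)
    omega
  have h4 : 2 ^ k ≤ 2 ^ 6 := Nat.pow_le_pow_right two_pos h3
  rw [← (MulAction.stabilizer T c).index_mul_card, hk]
  nlinarith

theorem f3 : F3Stmt.{u} := by
  intro G _ _ V ρ ψ st gol c hc
  have wc : IsWord c := hc.1
  have cc : c.card = 12 := hc.2
  have key : ∀ d, IsWord d → ψ d = ψ c → d = c ∨ d = cᶜ := fun d wd e => by
    have h1 : ψ (d ∆ c) = 1 := by rw [gol.add d c wd wc, e]; exact st.el _ (gol.mem c wc)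
    rcases (gol.ker _ (wd.symmDiff wc)).1 h1 with h | h
    · exact Or.inl (symmDiff_eq_bot.1 h)
    · refine Or.inr ?_
      ext i
      have : i ∈ d ∆ c := h ▸ Finset.mem_univ i
      rw [Finset.mem_symmDiff] at this
      rw [Finset.mem_compl]
      tauto
  refine ⟨fun e => ?_, ?_, fun S hS hle => ?_⟩
  · rcases (gol.ker c wc).1 e with h | h <;> rw [h] at cc
    · simp at cc
    · exact absurd cc (by decide)
  · rintro o ho ⟨n, hn, e⟩
    have wo : IsWord o := ho.1
    have h1 := gol.act ⟨n, hn⟩ o wo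
    have h2 : (ρ ⟨n, hn⟩ • o).card = 8 := (Finset.card_smul_finset _ _).trans ho.2
    rcases key _ (wo.smul (ρ ⟨n, hn⟩).2) (h1.symm.trans e) with h | h
    · have h : ρ ⟨n, hn⟩ • o = c := h
      rw [h, cc] at h2
      omega
    · have h : ρ ⟨n, hn⟩ • o = cᶜ := h
      rw [h, Finset.card_compl, cc] at h2
      exact absurd h2 (by decide)
  · have hN : S ≤ NN V := hle.trans inf_le_left
    let f : S →* M24 := ρ.comp (inclusion hN)
    have h1 : Nat.card f.range ≤ 2 ^ 7 := by
      refine card_T (hS.of_surjective f.rangeRestrict f.rangeRestrict_surjective) hc ?_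
      rintro _ ⟨s, rfl⟩
      refine key _ (wc.smul (f s).2) ((gol.act (inclusion hN s) c wc).symm.trans ?_)
      have := mem_centralizer_singleton_iff.1 (hle s.2).2
      change (s : G) * ψ c * (s : G)⁻¹ = ψ c
      rw [this, mul_inv_cancel_right]
    have h2 : Nat.card f.ker ≤ 2 ^ 11 := by
      rw [← st.card]
      refine Nat.card_le_card_of_injective (fun k => (⟨k.1.1, (st.ker _).1 k.2⟩ : V)) fun a b e => ?_
      exact Subtype.ext (Subtype.ext (Subtype.ext_iff.1 e :))
    rw [← f.ker.index_mul_card, index_ker]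
    exact (Nat.mul_le_mul h1 h2).trans (by norm_num)

end Cfsg.Agent.H67.RfF3
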