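import Cfsg.Agent.H35.RfQ
import Cfsg.Agent.H42.Code
import Cfsg.Agent.H42.Enum

/-! Project RF (S3318), piece KITT: the dictionary of the cocode module. -/

set_option autoImplicit false

namespace Cfsg.Agent.H67.RfKitT

open Cfsg Subgroup Cfsg.Agent.H42 Cfsg.Agent.H18.Rf Cfsg.Agent.H35.RF
open Cfsg.Agent.H48 (IsWord)
open scoped symmDiff Pointwise

universe u

/-- equal parity on all tetrads -/
def Par (c : Finset GolayPt) : Prop :=
  ∀ t ∈ famDec 6 sext0, ∀ t' ∈ famDec 6 sext0, (c ∩ t).card % 2 = (c ∩ t').card % 2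

theorem t0_mem : t0 ∈ famDec 6 sext0 := mem_famDec.mpr ⟨5, by norm_num, congrArg toSet (by decide)⟩

theorem t0_card : t0.card = 4 := sext0_mem.2.1 _ t0_mem

theorem even_symm {c d : Finset GolayPt} (hc : Even c.card) (hd : Even d.card) :
    Even (c ∆ d).card := by
  have := card_symmDiff_add c d
  rw [Nat.even_iff] at *
  omega

theorem par_symm {c d : Finset GolayPt} (hc : Par c) (hd : Par d) : Par (c ∆ d) := by
  intro t ht t' ht'
  have h1 := card_symmDiff_add (c ∩ t) (d ∩ t)
  have h2 := card_symmDiff_add (c ∩ t') (d ∩ t')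
  have e : ∀ s : Finset GolayPt, (c ∆ d) ∩ s = (c ∩ s) ∆ (d ∩ s) := fun s =>
    inf_symmDiff_distrib_right c d s
  have := hc t ht t' ht'
  have := hd t ht t' ht'
  rw [e, e]
  omega

theorem par_word {c : Finset GolayPt} (hc : IsWord c) : Par c := by
  intro t ht t' ht'
  by_cases e : t = t'
  · rw [e]
  have h1 : IsWord (t ∪ t') := (sext0_mem.2.2 t ht t' ht' e).1
  have h2 := hc.even_inter h1
  rw [Finset.inter_union_distrib_left, Finset.card_union_of_disjoint
    ((sextet_disjoint sext0_mem ht ht' e).mono Finset.inter_subset_right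
      Finset.inter_subset_right)] at h2
  omega

theorem par_even {c : Finset GolayPt} (hc : Par c) : Even c.card := by
  have e : c = (famDec 6 sext0).biUnion (fun t => c ∩ t) := by
    ext p
    rw [Finset.mem_biUnion]
    refine ⟨fun h => ?_, fun ⟨t, _, h⟩ => (Finset.mem_inter.1 h).1⟩
    obtain ⟨t, ht, hp⟩ := sextet_cover sext0_mem p
    exact ⟨t, ht, Finset.mem_inter.2 ⟨h, hp⟩⟩
  have h1 : c.card = ∑ t ∈ famDec 6 sext0, (c ∩ t).card := by
    conv_lhs => rw [e]
    exact Finset.card_biUnion fun t ht t' ht' hne =>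
      (sextet_disjoint sext0_mem ht ht' hne).mono Finset.inter_subset_right
        Finset.inter_subset_right
  rw [h1, Nat.even_iff, Finset.sum_nat_mod,
    Finset.sum_congr rfl (fun t ht => hc t ht t0 t0_mem), Finset.sum_const, sext0_mem.1,
    smul_eq_mul]
  omega

theorem rS3 : toM rS ^ 3 = 1 := by
  have h : inM rS = true := by decide +kernel
  rw [pow_three', ← toM_pmul h h, ← toM_pmul (inM_pmul h h) h,
    show pmul (pmul rS rS) rS = pid by decide +kernel, toM_pid]

theorem card_gF : Nat.card (gen gF) = 64 :=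
  card_gen_of_orbSize (allL_iff.1 (by decide +kernel)) (fuel := 100) (by norm_num)
    (by decide +kernel)

section
variable {G : Type u} [Group G] [Finite G] {V : Subgroup G} {ρ : NN V →* M24}
  {ψ : Finset GolayPt → G}

omit [Finite G] in
theorem key (st : St V ρ) (tod : Tod V ρ ψ) {c d : Finset GolayPt} (hc : Even c.card)
    (hd : Even d.card) : ψ c = ψ d ↔ IsWord (c ∆ d) := by
  rw [← tod.ker _ (even_symm hc hd), tod.add c d hc hd]
  have := st.el _ (tod.mem d hd)
  constructor
  · intro e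
    rw [e, this]
  · intro e
    exact mul_right_cancel (e.trans this.symm)

theorem card_pre (st : St V ρ) (S : Subgroup M24) :
    Nat.card (pre V ρ S) = 2 ^ 11 * Nat.card S := by
  have h1 : Nat.card (pre V ρ S) = Nat.card (S.comap ρ) :=
    card_map_of_injective (NN V).subtype_injective
  have h2 : Nat.card ρ.ker = 2 ^ 11 := by
    rw [← st.card, ← card_map_of_injective (NN V).subtype_injective]
    congr 2
    ext g
    exact ⟨fun ⟨n, hn, e⟩ => e ▸ (st.ker n).1 hn,
      fun h => ⟨⟨g, le_normalizer h⟩, (st.ker _).2 h, rfl⟩⟩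
  have h3 := (S.comap ρ).index_mul_card
  have h4 := ρ.ker.index_mul_card
  rw [index_comap_of_surjective _ st.sur] at h3
  rw [index_ker, MonoidHom.range_eq_top.2 st.sur, card_top, h2, ← S.index_mul_card, ← h3,
    mul_assoc] at h4
  rw [h1, ← Nat.eq_of_mul_eq_mul_left (Nat.pos_of_ne_zero S.index_ne_zero_of_finite) h4, mul_comm]

end

theorem kitT : KitTStmt.{u} := by
  intro G _ _ V ρ ψ st tod
  have e0 : Even t0.card := by rw [t0_card]; decide
  refine ⟨?_, fun c hc => ⟨fun h => ?_, fun h => subset_closure ⟨c, h, rfl⟩⟩, fun c hc => ?_,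
    card_pre st, card_gF, ?_⟩
  · ext g
    rw [mem_pre, mem_inf]
    have main : ∀ n : NN V, (n : G) ∈ C1 (ψ t0) ↔ ρ n ∈ GS := by
      intro n
      have c4 : (ρ n • t0).card = 4 := (Finset.card_smul_finset _ _).trans t0_card
      have h1 : (n : G) ∈ C1 (ψ t0) ↔ ψ t0 = ψ (ρ n • t0) := by
        rw [← tod.act n t0 e0, mem_centralizer_singleton_iff, eq_mul_inv_iff_mul_eq, eq_comm]
      rw [h1, key st tod e0 (by rw [c4]; decide)]
      have h2 := leader_four sext0_mem t0_mem (u := ρ n • t0)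
      have h3 : ρ n • t0 ∈ ρ n • famDec 6 sext0 := Finset.smul_mem_smul_finset t0_mem
      constructor
      · intro h
        exact sextet_unique (msmul_mem_sextets _ sext0_mem) sext0_mem h3 (h2.1 ⟨c4.le, h⟩)
      · intro h
        have h : ρ n • famDec 6 sext0 = famDec 6 sext0 := h
        exact (h2.2 (h ▸ h3)).2
    exact ⟨fun ⟨h1, h2⟩ => ⟨h1, (main ⟨g, h1⟩).1 h2⟩, fun ⟨h1, h2⟩ => ⟨h1, (main ⟨g, h1⟩).2 h2⟩⟩
  · have main : ∀ v ∈ WT ψ, ∃ d, Par d ∧ ψ d = v := by
      intro v hv
      induction hv using closure_induction with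
      | mem x hx => exact hx
      | one => exact ⟨∅, par_word H48.isWord_empty, (tod.ker _ (by simp)).2 H48.isWord_empty⟩
      | mul x y _ _ hx hy =>
        obtain ⟨a, ha, rfl⟩ := hx
        obtain ⟨b, hb, rfl⟩ := hy
        exact ⟨_, par_symm ha hb, tod.add a b (par_even ha) (par_even hb)⟩
      | inv x _ hx =>
        obtain ⟨a, ha, rfl⟩ := hx
        exact ⟨a, ha, eq_inv_of_mul_eq_one_left (st.el _ (tod.mem a (par_even ha)))⟩
    obtain ⟨d, hd, e⟩ := main _ h
    have := par_symm hd (par_word ((key st tod (par_even hd) hc).1 e))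
    rwa [symmDiff_symmDiff_cancel_left] at this
  · rw [← tod.ker c hc, ← key st tod hc e0]
    have h2 : ψ t0 * ψ t0 = 1 := st.el _ (tod.mem _ e0)
    constructor
    · rintro ⟨k, hk⟩
      have hk : ψ t0 ^ k = ψ c := hk
      have h3 : ψ t0 ^ (2 : ℤ) = 1 := by rw [zpow_two, h2]
      rw [← hk, zpow_eq_zpow_emod k h3]
      rcases Int.emod_two_eq_zero_or_one k with h | h <;> rw [h]
      · exact Or.inl (zpow_zero _)
      · exact Or.inr (zpow_one _)
    · rintro (h | h) <;> rw [h]
      · exact one_mem _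
      · exact mem_zpowers _
  · obtain ⟨n, hn⟩ := st.sur (toM rS)
    have h3 : ((n ^ 3 : NN V) : G) ∈ V := (st.ker _).1 (by rw [map_pow, hn, rS3])
    have h6 := st.el _ h3
    refine ⟨(n ^ 4 : NN V), st, tod, ⟨(n ^ 4).2, ?_⟩, ?_⟩
    · change ρ (n ^ 4) = _
      rw [map_pow, hn, pow_succ, rS3, one_mul]
    · rw [coe_pow, ← pow_add] at h6
      rw [coe_pow, ← pow_mul, show 4 * 3 = (3 + 3) * 2 from rfl, pow_mul, h6, one_pow]

end Cfsg.Agent.H67.RfKitT
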